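import Cfsg.Agent.H620.PNAlt
import Cfsg.Agent.H710.Cuspidal

/-!
# The alternating group of degree nine has a character of `3`-defect zero (helper620)

The partition `(5, 3, 1)` is a `3`-core (degree `162`).
-/

set_option autoImplicit false

namespace Cfsg.Agent.H620.PNNine

open Finset Cfsg Cfsg.Agent.H614 Equiv Equiv.Perm Cfsg.Agent.H620.PNAlt

/-- The tuple of `(5, 3, 1)`. -/
def b : Fin 3 → ℕ := ![1, 4, 7]

theorem not_inj {β : Fin 3 → ℕ} {i j : Fin 3} (hij : i ≠ j) (h : β i = β j) (s : Multiset ℕ) : FM s β = 0 :=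
  (FM_alt s).eq_zero_of_not_injective two_torsion_int (fun hi => hij (hi h))

theorem FM_b {r : ℕ} (hr : 3 ∣ r) (hr0 : r ≠ 0) (s : Multiset ℕ) : FM (r ::ₘ s) b = 0 := by
  rw [FM_cons, Fin.sum_univ_three]
  have h0 : b 0 = 1 := rfl
  have h1 : b 1 = 4 := rfl
  have h2 : b 2 = 7 := rfl
  rw [if_neg (by rw [h0]; omega), h1, h2]
  have e1 : (if r ≤ 4 then FM s (dn b 1 r) else 0) = 0 := by
    split_ifs with h
    · have hr3 : r = 3 := by omega
      subst hr3
      exact not_inj (i := 0) (j := 1) (by decide) (by decide) s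
    · rfl
  have e2 : (if r ≤ 7 then FM s (dn b 2 r) else 0) = 0 := by
    split_ifs with h
    · have hr3 : r = 3 ∨ r = 6 := by omega
      rcases hr3 with rfl | rfl
      · exact not_inj (i := 1) (j := 2) (by decide) (by decide) s
      · exact not_inj (i := 0) (j := 2) (by decide) (by decide) s
    · rfl
  rw [e1, e2]
  rfl

theorem isIrr : IsIrrCharacter (Perm (Fin 9)) (ch (Fin 9) b) :=
  isIrr_ch (by decide) (by decide)

theorem exists_odd : ∃ g : Perm (Fin 9), g ∉ alternatingGroup (Fin 9) ∧ ch (Fin 9) b g ≠ 0 := by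
  obtain ⟨g, hg⟩ := (exists_with_cycleType_iff (α := Fin 9) (m := {7, 2})).2 ⟨by simp, by
    intro x hx
    simp at hx
    omega⟩
  refine ⟨g, ?_, ?_⟩
  · rw [mem_alternatingGroup, sign_of_cycleType, hg]
    decide
  · rw [ch_apply, ty_of_cycleType hg]
    have h1 : FM (({7, 2} : Multiset ℕ) + Multiset.replicate (9 - ({7, 2} : Multiset ℕ).sum) 1) b ≠ 0 := by
      decide +kernel
    exact_mod_cast h1

theorem isIrr_alt :
    IsIrrCharacter (alternatingGroup (Fin 9)) (fun x => ch (Fin 9) b (x : Perm (Fin 9))) := by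
  classical
  have hidx : (alternatingGroup (Fin 9)).index = 2 := alternatingGroup.index_eq_two
  have hres : IsCharacter (alternatingGroup (Fin 9)) (fun x => ch (Fin 9) b (x : Perm (Fin 9))) :=
    Characters.Clifford.isCharacter_restrict (alternatingGroup (Fin 9)) (Characters.Core.isIrr_isCharacter isIrr)
  rcases CharactersDeep.PrimeIndex.norm_restrict_prime_index (alternatingGroup (Fin 9)) Nat.prime_two hidx isIrr with
    h1 | h1
  · exact Characters.Core.isIrr_of_classInner_self hres h1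
  · exfalso
    obtain ⟨g, hg, hg0⟩ := exists_odd
    exact hg0 (eq_zero_of_norm_two (alternatingGroup (Fin 9)) hidx isIrr (by rw [h1]; rfl) hg)

/-- **The alternating group of degree nine has a character of `3`-defect zero.** -/
theorem hasDZ_A9 : Cfsg.Agent.H665.NoPQ.HasDZ 3 (alternatingGroup (Fin 9)) := by
  have : Fact (Nat.Prime 3) := ⟨Nat.prime_three⟩
  obtain ⟨P⟩ : Nonempty (Sylow 3 (alternatingGroup (Fin 9))) := inferInstance
  refine Cfsg.Agent.H710.Cuspidal.hasDZ_of_zero P ⟨_, isIrr_alt⟩ ?_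
  intro x hx hx1
  show ch (Fin 9) b (x : Perm (Fin 9)) = 0
  obtain ⟨k, hk⟩ := IsPGroup.iff_orderOf.1 P.isPGroup' ⟨x, hx⟩
  have hk' : orderOf (x : Perm (Fin 9)) = 3 ^ k := by
    rw [← hk, Subgroup.orderOf_mk, Subgroup.orderOf_coe]
  have hne : (x : Perm (Fin 9)).cycleType ≠ 0 := by
    rw [Ne, cycleType_eq_zero]
    intro h
    exact hx1 (Subtype.ext h)
  obtain ⟨r, hr⟩ := Multiset.exists_mem_of_ne_zero hne
  have h2 : 2 ≤ r := two_le_of_mem_cycleType hr
  have hd : r ∣ 3 ^ k := by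
    rw [← hk']
    exact dvd_of_mem_cycleType hr
  have h3 : 3 ∣ r := by
    obtain ⟨j, hj, rfl⟩ := (Nat.dvd_prime_pow Nat.prime_three).1 hd
    exact dvd_pow_self 3 (by rintro rfl; simp at h2)
  obtain ⟨s, hs⟩ := Multiset.exists_cons_of_mem hr
  rw [ch_apply, ty_of_cycleType hs, Multiset.cons_add, FM_b h3 (by omega), Int.cast_zero]

end Cfsg.Agent.H620.PNNine
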